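import Cfsg.Agent.PQ.Th.Plc
import Cfsg.Agent.H794.GUT.Main
import Cfsg.Agent.TwoFusion.GUTwo

/-!
# PQ, box LU : self dual classes in symplectic groups (helper8)

`E = F[θ]` has `Q ^ 2` elements, `θ ^ (Q + 1) = 1`.  A symplectic space with an isometry whose eigenvalues are conjugate to `θ`
is the trace form of a hermitian space over `E` (`exists_st`); `boxLU : BoxLU`.
-/

set_option autoImplicit false
set_option linter.unusedSectionVars false

namespace Cfsg.Agent.PQ.Lu

open Module Polynomial Cfsg Cfsg.Agent.H615.GU Cfsg.Agent.PQ.Mk Cfsg.Agent.H794.GUT Cfsg.Agent.PQ.Th Cfsg.Agent.H152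
  Cfsg.Agent.H174 Cfsg.Agent.H186 Cfsg.Agent.ClassicalGeometry.GUBasic

variable {F E : Type} [Field F] [Fintype F] [Field E] [Fintype E] [Algebra F E] {Q m : ℕ} {θ : E}

variable (F Q θ) in
/-- the data of the extension -/
structure Dat : Prop where
  card : Fintype.card E = Q ^ 2
  pow : θ ^ (Q + 1) = 1
  ne : θ ≠ θ⁻¹
  gen : Algebra.adjoin F {θ} = ⊤
  deg : finrank F E = (minpoly F θ).natDegree
  fix : ∀ c : F, algebraMap F E c ^ Q = algebraMap F E c
  tr : ∀ z : E, Algebra.trace F E (z ^ Q) = Algebra.trace F E z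

variable (F θ) in
/-- the linear form -/
noncomputable def tf : E →ₗ[F] F := Algebra.trace F E ∘ₗ LinearMap.mulLeft F (θ - θ⁻¹)

theorem tf_apply (z : E) : tf F θ z = Algebra.trace F E ((θ - θ⁻¹) * z) := rfl

theorem tf_alg (c : F) (z : E) : tf F θ (algebraMap F E c * z) = c * tf F θ z := by rw [← Algebra.smul_def, map_smul, smul_eq_mul]

namespace Dat

variable (D : Dat F Q θ)
include D

theorem ne_zero : θ ≠ 0 := fun h => D.ne (by rw [h, inv_zero])

theorem pow' : θ ^ Q = θ⁻¹ := eq_inv_of_mul_eq_one_left (by rw [← pow_succ, D.pow])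

theorem tf_ext {z z' : E} (h : ∀ c, tf F θ (c * z) = tf F θ (c * z')) : z = z' := by
  have h1 := trace_nd (F := F) ((θ - θ⁻¹) * (z - z')) fun c => by
    rw [mul_left_comm, ← tf_apply, mul_sub, map_sub, h, sub_self]
  exact sub_eq_zero.1 ((mul_eq_zero.1 h1).resolve_left (sub_ne_zero.2 D.ne))

theorem tf_ex (f : E →ₗ[F] F) : ∃ z, ∀ c, f c = tf F θ (c * z) := by
  have : FiniteDimensional F E := Module.Finite.of_finite
  refine ⟨(θ - θ⁻¹)⁻¹ * ((Algebra.traceForm F E).toDual (traceForm_nondegenerate F E)).symm f, fun c => ?_⟩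
  rw [tf_apply, mul_left_comm, mul_inv_cancel_left₀ (sub_ne_zero.2 D.ne), mul_comm, ← Algebra.traceForm_apply,
    LinearMap.BilinForm.apply_toDual_symm_apply]

theorem tf_pow (z : E) : tf F θ (z ^ Q) = -tf F θ z := by
  obtain ⟨σ, hσ⟩ := exists_powHom D.card
  rw [tf_apply, tf_apply, ← D.tr, ← map_neg, mul_pow, pow_pow_q D.card, ← hσ, map_sub, map_inv₀, hσ, D.pow', inv_inv, ← neg_mul, neg_sub]

theorem tf_fix {z : E} (h : z ^ Q = z) : tf F θ z = 0 := by
  rw [tf_apply, sub_mul, map_sub, ← D.tr (θ * z), mul_pow, D.pow', h, sub_self]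

theorem exists_herm {W : Type} [AddCommGroup W] [Module F W] [Module E W] [IsScalarTower F E W] (B : LinearMap.BilinForm F W)
    (ha : B.IsAlt) (hn : ∀ x, (∀ y, B x y = 0) → x = 0) (hθ : ∀ x y, B (θ • x) (θ • y) = B x y) :
    ∃ h : W → W → E, HF Q h ∧ ∀ (c : E) x y, B (c • x) y = tf F θ (c * h x y) := by
  obtain ⟨σ, hσ⟩ := exists_powHom D.card
  have h1 : ∀ (c : E) x y, B (c • x) y = B x (c ^ Q • y) := fun c => by
    have h2 : c ∈ Algebra.adjoin F {θ} := D.gen ▸ trivial
    induction h2 using Algebra.adjoin_induction with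
    | mem z hz => exact fun x y => by rw [hz, D.pow', ← hθ x, smul_inv_smul₀ D.ne_zero]
    | algebraMap r => exact fun x y => by rw [D.fix, algebraMap_smul, algebraMap_smul, map_smul, map_smul, LinearMap.smul_apply]
    | add a b _ _ ha hb => exact fun x y => by rw [← hσ, map_add, hσ, hσ, add_smul, add_smul, map_add, map_add, LinearMap.add_apply, ha, hb]
    | mul a b _ _ ha hb => exact fun x y => by rw [mul_smul, ha, hb, mul_pow, mul_comm, mul_smul]
  choose h hh using fun x y => D.tf_ex (B.flip y ∘ₗ (LinearMap.toSpanSingleton E W x).restrictScalars F)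
  have h2 : ∀ (c : E) x y, B (c • x) y = tf F θ (c * h x y) := fun c x y => hh x y c
  refine ⟨h, ⟨fun x x' y => D.tf_ext fun c => ?_, fun a x y => D.tf_ext fun c => ?_, fun x y => D.tf_ext fun c => ?_,
    fun x hx => hn x fun y => ?_⟩, h2⟩
  · rw [← h2, mul_add, map_add, ← h2, ← h2, smul_add, map_add, LinearMap.add_apply]
  · rw [← h2, ← mul_assoc, ← h2, mul_smul]
  · rw [← h2, ← ha.neg_eq, ← pow_pow_q D.card c, ← h1, h2, ← mul_pow, D.tf_pow]
  · rw [← one_smul E x, h2, hx, mul_zero, map_zero]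

end Dat

variable {V : Type} [AddCommGroup V] [Module F V]

variable (F θ) in
/-- the operator of the model -/
noncomputable def mo (U : GU m E Q) : End F (Fin m → E) := (θ • Matrix.toLin' (gmat U) : End E (Fin m → E)).restrictScalars F

theorem mo_apply (U : GU m E Q) (x : Fin m → E) : mo F θ U x = θ • Matrix.toLin' (gmat U) x := rfl

variable (θ) in
/-- an isomorphism with the model -/
structure St (Φ : Fm false F V) (g : Φ.G) (U : GU m E Q) (φ : V ≃ₗ[F] (Fin m → E)) : Prop where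
  B : ∀ u v, Φ.B u v = tf F θ (hermForm m E Q (φ u) (φ v))
  g : ∀ v, φ (g.1 v) = mo F θ U (φ v)

/-- the data of a unipotent element -/
def Un (l : Col) (U : GU l.size E Q) : Prop :=
  ∃ (t : ℕ) (b : Fin t → ℕ) (_ : ∀ j, l j = (Finset.univ.filter fun k => j < b k).card)
    (bas : Basis ((k : Fin t) × Fin (b k)) E (Fin l.size → E)), IsJB (Matrix.toLin' (gmat U) - LinearMap.id) bas ∧
    (Nat.card ↥(Subgroup.centralizer ({U} : Set (GU l.size E Q))) : ℂ) = (-1) ^ l.size * ev (-(Q : ℂ)) (ap l)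

variable {l : Col} {U : GU l.size E Q}

theorem Un.pow (h : Un l U) (θ : E) : ∃ N : ℕ, ∀ x, ((θ • Matrix.toLin' (gmat U) : End E (Fin l.size → E)) ^ N) x = θ • x := by
  obtain ⟨t, b, -, bas, h1, -⟩ := h
  exact exists_pow_theta (nilp_jb h1 (B := Finset.univ.sup b) fun k => Finset.le_sup (Finset.mem_univ k)) θ

theorem Un.col [FiniteDimensional F (Fin l.size → E)] (h : Un l U) (D : Dat F Q θ) (φ : F[X]) [Decidable (φ = minpoly F θ)] :
    col (mo F θ U) φ = if φ = minpoly F θ then l else 0 := by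
  have : FiniteDimensional F E := Module.Finite.of_finite
  obtain ⟨t, b, hl, bas, h1, -⟩ := h
  by_cases h2 : φ.Monic ∧ Irreducible φ
  · exact col_theta hl D.ne_zero D.deg h1 h2.1 h2.2
  · have h3 : IsIntegral F θ := Algebra.IsIntegral.isIntegral θ
    rw [if_neg fun h4 : φ = minpoly F θ => h2 (h4 ▸ ⟨minpoly.monic h3, minpoly.irreducible h3⟩)]
    exact dif_neg h2

theorem exists_st [FiniteDimensional F V] (D : Dat F Q θ) (h : Un l U) (Φ : Fm false F V) (g : Φ.G)
    (hp : ∀ φ, col (g.1 : End F V) φ ≠ 0 → φ = minpoly F θ) (hl : col (g.1 : End F V) (minpoly F θ) = l) : ∃ φ, St θ Φ g U φ := by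
  classical
  have : FiniteDimensional F (Fin l.size → E) := Module.Finite.of_finite
  obtain ⟨φ, hφ⟩ := exists_equiv_of_finrank (g.1 : End F V) (mo F θ U) fun φ h1 h2 j => kd_eq_of_col h1 h2 (by
    rw [h.col D]
    by_cases h3 : φ = minpoly F θ
    · rw [if_pos h3, h3, hl]
    · rw [if_neg h3]
      exact not_not.1 fun h4 => h3 (hp φ h4)) j
  let B : LinearMap.BilinForm F (Fin l.size → E) := Φ.B.compl₁₂ φ.symm.toLinearMap φ.symm.toLinearMap
  have hB : ∀ u v, B (φ u) (φ v) = Φ.B u v := fun u v => congrArg₂ (Φ.B · ·) (φ.symm_apply_apply u) (φ.symm_apply_apply v)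
  have h1 : ∀ x y, B (mo F θ U x) (mo F θ U y) = B x y := fun x y => by
    obtain ⟨u, rfl⟩ := φ.surjective x
    obtain ⟨v, rfl⟩ := φ.surjective y
    rw [← hφ, ← hφ, hB, hB]
    exact g.2.1 u v
  have h2 : ∀ x y, B (θ • x) (θ • y) = B x y := fun x y => by
    obtain ⟨N, hN⟩ := h.pow θ
    rw [← hN, ← hN]
    clear hN
    induction N with
    | zero => rfl
    | succ N ih => rw [pow_succ', End.mul_apply, End.mul_apply]; exact (h1 _ _).trans ih
  obtain ⟨H, hH, h3⟩ := D.exists_herm B (fun x => (Φ.sp rfl).1 _) (fun x hx => by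
    obtain ⟨u, rfl⟩ := φ.surjective x
    rw [Φ.nd.1 u fun v => (hB u v).symm.trans (hx _), map_zero]) h2
  have h4 : ∀ x y, H (Matrix.toLin' (gmat U) x) (Matrix.toLin' (gmat U) y) = H x y := fun x y => D.tf_ext fun c => by
    rw [← h3, ← h3, ← h2, ← map_smul]
    exact h1 _ _
  obtain ⟨ψ, hψ⟩ := exists_std D.card (finrank_fin_fun E) hH
  let A := LinearMap.toMatrix' (ψ.toLinearMap ∘ₗ Matrix.toLin' (gmat U) ∘ₗ ψ.symm.toLinearMap)
  have h5 : ∀ x, ψ (Matrix.toLin' (gmat U) x) = Matrix.toLin' A (ψ x) := fun x => by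
    rw [Matrix.toLin'_toMatrix']
    exact congrArg (fun y => ψ (Matrix.toLin' (gmat U) y)) (ψ.symm_apply_apply x).symm
  have h6 : st Q A * A = 1 := (isom_iff_st D.card A).1 fun x y => by
    obtain ⟨x, rfl⟩ := ψ.surjective x
    obtain ⟨y, rfl⟩ := ψ.surjective y
    rw [← Matrix.toLin'_apply, ← Matrix.toLin'_apply, ← h5, ← h5, hψ, hψ, h4]
  obtain ⟨P, hP⟩ := isConj_iff.1 (isConj_of_equiv D.card (g := U)
    (g' := ⟨⟨A, st Q A, mul_eq_one_comm.1 h6, h6⟩, (mem_GU_iff_st D.card _).2 h6⟩) ψ h5).symm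
  have h7 : gmat P * A = gmat U * gmat P := congrArg gmat (mul_inv_eq_iff_eq_mul.1 hP)
  let π : (Fin l.size → E) ≃ₗ[E] (Fin l.size → E) := LinearEquiv.ofInjectiveEndo (Matrix.toLin' (gmat P))
    ((hf_std D.card _).injective (gmat_isom D.card P))
  refine ⟨φ.trans ((ψ.trans π).restrictScalars F), fun u v => ?_, fun v => ?_⟩
  · rw [← hB, ← one_smul E (φ u), h3, one_mul, ← hψ, ← gmat_isom D.card P]
    rfl
  · show Matrix.toLin' (gmat P) (ψ (φ ((g.1 : End F V) v))) = θ • Matrix.toLin' (gmat U) (Matrix.toLin' (gmat P) (ψ (φ v)))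
    rw [hφ, mo_apply, map_smul, map_smul, h5, ← Matrix.toLin'_mul_apply, ← Matrix.toLin'_mul_apply, h7]

theorem card_cen [FiniteDimensional F V] (Φ : Fm false F V) (g : Φ.G) :
    Nat.card (Subgroup.centralizer ({g} : Set Φ.G)) = Nat.card (UC (fun u v => Φ.B u v) (g.1 : End F V)) :=
  Nat.card_congr
    { toFun := fun c => ⟨c.1.1, LinearMap.ext fun v => congrArg (fun x : Φ.G => x.1 v) (Subgroup.mem_centralizer_singleton_iff.1 c.2),
        c.1.2.1⟩
      invFun := fun b => ⟨⟨LinearEquiv.ofInjectiveEndo b.1 ((injective_iff_map_eq_zero b.1).2 fun x hx => Φ.nd.1 x fun y => by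
          rw [← show Φ.B (b.1 x) (b.1 y) = Φ.B x y from b.2.2 x y, hx, map_zero, LinearMap.zero_apply]), b.2.2, fun v => by rw [(Φ.sp rfl).2]; rfl⟩,
        Subgroup.mem_centralizer_singleton_iff.2 (Subtype.ext (LinearEquiv.ext fun v => LinearMap.congr_fun b.2.1 v))⟩
      left_inv := fun _ => Subtype.ext (Subtype.ext (LinearEquiv.ext fun _ => rfl))
      right_inv := fun _ => rfl }

theorem card_tf (D : Dat F Q θ) (h : Un l U) : Nat.card (UC (fun x y => tf F θ (hermForm l.size E Q x y)) (mo F θ U)) =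
    Nat.card (UC (hermForm l.size E Q) (θ • Matrix.toLin' (gmat U))) := by
  obtain ⟨N, hN⟩ := h.pow θ
  have hH := hf_std (q := Q) D.card l.size
  exact Nat.card_congr
    { toFun := fun b => ⟨mkK b.1 (klin_of_comm D.gen (comm_theta hN b.2.1)), LinearMap.ext fun x => LinearMap.congr_fun b.2.1 x,
        fun x y => D.tf_ext fun c => by
          have h1 := b.2.2 (c • x) y
          simp only at h1
          rwa [klin_of_comm D.gen (comm_theta hN b.2.1) c x, hH.smul, hH.smul] at h1⟩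
      invFun := fun B => ⟨B.1.restrictScalars F, LinearMap.ext fun x => LinearMap.congr_fun B.2.1 x, fun x y => congrArg (tf F θ) (B.2.2 x y)⟩
      left_inv := fun _ => rfl
      right_inv := fun _ => rfl }

/-- the symplectic form of the model -/
noncomputable def mdl (D : Dat F Q θ) (φ : V ≃ₗ[F] (Fin m → E)) : Fm false F V where
  B := LinearMap.mk₂ F (fun u v => tf F θ (hermForm m E Q (φ u) (φ v)))
    (fun _ _ _ => by rw [map_add, (hf_std D.card m).add, map_add])
    (fun _ _ _ => by rw [map_smul, ← algebraMap_smul E, (hf_std D.card m).smul, tf_alg, smul_eq_mul])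
    (fun _ _ _ => by rw [map_add, (hf_std D.card m).add_right D.card, map_add])
    fun _ _ _ => by rw [map_smul, ← algebraMap_smul E, (hf_std D.card m).smul_right, D.fix, tf_alg, smul_eq_mul]
  Q := 0
  nd := by
    have h : ∀ u, (∀ v, tf F θ (hermForm m E Q (φ u) (φ v)) = 0) → u = 0 := fun u hu =>
      φ.map_eq_zero_iff.1 ((hf_std D.card m).nd _ fun y => D.tf_ext fun c => by
        have h1 := hu (φ.symm (c ^ Q • y))
        rwa [φ.apply_symm_apply, (hf_std D.card m).smul_right, pow_pow_q D.card, ← map_zero (tf F θ), ← mul_zero c] at h1)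
    exact ⟨h, fun v hv => h v fun u => by rw [(hf_std D.card m).symm, D.tf_pow, neg_eq_zero]; exact hv u⟩
  sp _ := ⟨fun v => D.tf_fix ((hf_std D.card m).symm _ _).symm, rfl⟩
  og := nofun

theorem card_g (D : Dat F Q θ) (U : GU m E Q) :
    Nat.card (UC (hermForm m E Q) (Matrix.toLin' (gmat U))) = Nat.card (Subgroup.centralizer {U}) := (card_centralizer_eq D.card U).symm

theorem mdl_B (D : Dat F Q θ) (φ : V ≃ₗ[F] (Fin m → E)) (u v : V) : (mdl D φ).B u v = tf F θ (hermForm m E Q (φ u) (φ v)) := rfl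

theorem lcl (D : Dat F Q θ) {K : Type} [Field K] [Algebra F K] {lam : Kˣ} {e : ℕ} (h1 : mp F lam = minpoly F θ)
    (h2 : mp F lam⁻¹ = mp F lam) (h3 : (mp F lam).natDegree = 2 * e) : Lcl F false lam e (-(Q : ℤ)) := by
  classical
  choose U hU using fun l => exists_unip D.card l
  have hU' : ∀ l, Un l (U l) := hU
  have hs : ∀ {V : Type} [AddCommGroup V] [Module F V] [FiniteDimensional F V] (Φ : Fm false F V) (g : Φ.G) {l : Col},
      Pu lam (g.1 : End F V) → col (g.1 : End F V) (mp F lam) = l → ∃ φ, St θ Φ g (U l) φ := fun Φ g l hp hl =>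
    exists_st D (hU' l) Φ g (fun φ h => h1 ▸ (hp φ h).elim id fun h4 => h4.trans h2) (h1 ▸ hl)
  have hfd : FiniteDimensional F E := Module.Finite.of_finite
  have hd : ∀ m, finrank F (Fin m → E) = 2 * e * m := fun m => by
    rw [← finrank_mul_finrank F E, finrank_fin_fun, D.deg, ← h1, h3]
  refine ⟨fun Φ Φ' g g' hp hp' h => ?_, fun Φ g hp => ?_, fun Φ g hp => ?_, fun l => ?_, fun Φ g hp c hc => ?_⟩
  · obtain ⟨φ, hφ⟩ := hs Φ g hp h
    obtain ⟨φ', hφ'⟩ := hs Φ' g' hp' rfl
    refine ⟨φ.trans φ'.symm, fun u v => ?_, fun v => by rw [(Φ.sp rfl).2, (Φ'.sp rfl).2]; rfl, fun v => φ'.injective ?_⟩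
    · rw [hφ'.B, hφ.B, LinearEquiv.trans_apply, LinearEquiv.trans_apply, φ'.apply_symm_apply, φ'.apply_symm_apply]
    · rw [hφ'.g, LinearEquiv.trans_apply, LinearEquiv.trans_apply, φ'.apply_symm_apply, φ'.apply_symm_apply, hφ.g]
  · obtain ⟨φ, hφ⟩ := hs Φ g hp rfl
    obtain ⟨-, -, -, -, -, h4⟩ := hU' (col g.1.toLinearMap (mp F lam))
    rw [card_cen, card_UC_congr (h' := fun x y => tf F θ (hermForm _ E Q x y)) φ (fun u v => (hφ.B u v).symm) hφ.g, card_tf D (hU' _), UC_smul (hf_std D.card _) D.ne_zero,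
      card_g D, h4, Int.sign_neg, Int.sign_natCast_of_ne_zero (q_ne_zero D.card)]
    generalize col g.1.toLinearMap (mp F lam) = l
    push_cast
    rfl
  · obtain ⟨φ, -⟩ := hs Φ g hp rfl
    rw [φ.finrank_eq, hd]
  · have : FiniteDimensional F (Fin l.size → E) := Module.Finite.of_finite
    let φ : (Fin (2 * e * l.size) → F) ≃ₗ[F] (Fin l.size → E) := (finBasisOfFinrankEq F _ (hd _)).equivFun.symm
    have h4 : ∀ x y, hermForm l.size E Q (mo F θ (U l) x) (mo F θ (U l) y) = hermForm l.size E Q x y := fun x y => by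
      rw [mo_apply, mo_apply, (hf_std D.card _).smul, (hf_std D.card _).smul_right, gmat_isom D.card, ← mul_assoc, ← pow_succ', D.pow,
        one_mul]
    obtain ⟨T, hT⟩ : ∃ T : (Fin l.size → E) ≃ₗ[F] (Fin l.size → E), ∀ x, T x = mo F θ (U l) x :=
      ⟨LinearEquiv.ofInjectiveEndo (mo F θ (U l)) ((hf_std D.card _).injective (b := θ • Matrix.toLin' (gmat (U l))) h4), fun _ => rfl⟩
    clear_value φ
    have h6 : ∀ x, φ (((φ.trans T).trans φ.symm) x) = mo F θ (U l) (φ x) := fun x => (φ.apply_symm_apply _).trans (hT _)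
    have h7 : (φ.trans T).trans φ.symm ∈ (mdl D φ).G := ⟨fun u v => by rw [mdl_B, mdl_B, h6, h6, h4], fun _ => rfl⟩
    have h5 : ∀ ψ, col ((φ.trans T).trans φ.symm).toLinearMap ψ = if ψ = mp F lam then l else 0 := fun ψ => by
      rw [col_congr φ h6, (hU' l).col D, h1]
    exact ⟨_, mdl D φ, ⟨_, h7⟩, fun ψ h => Or.inl (not_not.1 fun h6 => h (by rw [h5, if_neg h6])), by rw [h5, if_pos rfl]⟩
  · obtain ⟨φ, hφ⟩ := hs Φ g hp rfl
    obtain ⟨s, h4⟩ := TwoFusion.GUTwo.exists_norm_eq D.card ((map_ne_zero (algebraMap F E)).2 hc) (D.fix c)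
    have h5 : s ≠ 0 := fun h => (map_ne_zero (algebraMap F E)).2 hc (by rw [← h4, h, zero_pow (Nat.succ_ne_zero _)])
    let j := (φ.trans ((LinearEquiv.smulOfNeZero E _ s h5).restrictScalars F)).trans φ.symm
    have h6 : ∀ v, φ (j v) = s • φ v := fun v => φ.apply_symm_apply _
    refine ⟨j, fun u v => ?_, fun v => by rw [(Φ.sp rfl).2]; exact (mul_zero c).symm, fun v => φ.injective ?_⟩
    · rw [hφ.B, hφ.B, h6, h6, (hf_std D.card _).smul, (hf_std D.card _).smul_right, ← mul_assoc, ← pow_succ', h4, tf_alg]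
    · rw [h6, hφ.g, hφ.g, h6, mo_apply, mo_apply, map_smul, smul_comm]

/-- **box LU** -/
theorem boxLU : BoxLU := by
  intro F _ _ K _ _ _ _ lam e h1 h2 h3
  have := Fintype.ofFinite F
  have hi := mp_int (F := F) lam
  have : FiniteDimensional F (IntermediateField.adjoin F {(lam : K)}) := IntermediateField.adjoin.finiteDimensional hi
  have : Finite (IntermediateField.adjoin F {(lam : K)}) := Module.finite_of_finite F
  have := Fintype.ofFinite (IntermediateField.adjoin F {(lam : K)})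
  have h4 : lam ^ Fintype.card F ^ e = lam⁻¹ := by
    obtain ⟨k, hk⟩ := mp_eq_iff.1 h2.symm
    have h5 : lam ^ Fintype.card F ^ (k + k) = lam := by rw [pow_add, pow_mul, ← hk, inv_pow, ← hk, inv_inv]
    rw [pow_eq_iff, h3, ← two_mul] at h5
    obtain ⟨c, rfl⟩ := Nat.dvd_of_mul_dvd_mul_left two_pos h5
    obtain ⟨c, rfl | rfl⟩ := Nat.even_or_odd' c
    · exact absurd (hk.trans ((pow_eq_iff _ _).2 (h3 ▸ ⟨c, by ring⟩))).symm h1
    · rw [hk, mul_add, mul_one, pow_add, pow_mul lam, (pow_eq_iff lam (e * (2 * c))).2 (h3 ▸ ⟨c, by ring⟩)]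
  have h5 : ∀ z : IntermediateField.adjoin F {(lam : K)},
      (FiniteField.frobeniusAlgEquivOfAlgebraic F _ ^ e) z = z ^ Fintype.card F ^ e := fun z => by
    rw [AlgEquiv.coe_pow, FiniteField.coe_frobeniusAlgEquivOfAlgebraic_iterate]
  have D : Dat F (Fintype.card F ^ e) (IntermediateField.AdjoinSimple.gen F (lam : K)) :=
    { card := by
        rw [Module.card_eq_pow_finrank (K := F), IntermediateField.adjoin.finrank hi, ← pow_mul, mul_comm e]
        exact congrArg _ h3
      pow := Subtype.ext (by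
        have h6 := congrArg Units.val (eq_inv_iff_mul_eq_one.1 h4)
        rw [← pow_succ, Units.val_pow_eq_pow_val] at h6
        exact h6)
      ne := fun h => h1 (Units.ext ((congrArg Subtype.val h).trans (Units.val_inv_eq_inv_val lam).symm))
      gen := (IntermediateField.adjoin.powerBasis hi).adjoin_gen_eq_top
      deg := by rw [IntermediateField.minpoly_gen, IntermediateField.adjoin.finrank hi]
      fix := fun c => by rw [← h5, AlgEquiv.commutes]
      tr := fun z => by rw [← h5, Algebra.trace_eq_of_algEquiv] }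
  have h6 := lcl D (IntermediateField.minpoly_gen F _).symm h2 h3
  rwa [Nat.cast_pow, ← Nat.card_eq_fintype_card] at h6

end Cfsg.Agent.PQ.Lu
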